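import Mathlib.GroupTheory.GroupAction.Quotient
import Mathlib.Algebra.Group.ConjFinite
import Mathlib.Data.Set.Card
import Mathlib.Algebra.Order.BigOperators.Group.Finset
import Mathlib.Algebra.BigOperators.Ring.Finset
import Mathlib.GroupTheory.Index
import Mathlib.Algebra.Group.Subgroup.Finite
import Mathlib.Tactic.Group
import Mathlib.Tactic.Ring
import Mathlib.Tactic.Linarith

/-!
The number of conjugacy classes of a permutation group is at most `2 ^ (n - number of orbits)`.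
-/

set_option autoImplicit false

namespace CL.ClsPath

open MulAction

variable {G α : Type*} [Group G] [MulAction G α]

/-- The classes meeting the coset `g A`. -/
def T (g : G) (A : Subgroup G) : Set (ConjClasses G) :=
  {c | ∃ x : G, g⁻¹ * x ∈ A ∧ ConjClasses.mk x = c}

/-- The number of orbits of `A`. -/
noncomputable def o (α : Type*) [MulAction G α] (A : Subgroup G) : ℕ :=
  Nat.card (orbitRel.Quotient A α)

theorem o_le [Finite α] (A : Subgroup G) : o α A ≤ Nat.card α :=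
  Nat.card_le_card_of_surjective (Quotient.mk (orbitRel A α)) Quotient.mk_surjective

/-- The map on orbit spaces induced by `g⁻¹`. -/
def pi (α : Type*) [MulAction G α] {A B : Subgroup G} {g : G} (h : ∀ b ∈ B, g⁻¹ * b * g ∈ A) :
    orbitRel.Quotient B α → orbitRel.Quotient A α :=
  Quotient.map (fun x => g⁻¹ • x) (by
    rintro x y ⟨b, hb⟩
    refine ⟨⟨g⁻¹ * b * g, h b b.2⟩, ?_⟩
    have hb' : (b : G) • y = x := hb
    show (g⁻¹ * (b : G) * g) • g⁻¹ • y = g⁻¹ • x
    rw [← hb', smul_smul, smul_smul]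
    congr 1
    group)

theorem pi_surj {A B : Subgroup G} {g : G} (h : ∀ b ∈ B, g⁻¹ * b * g ∈ A) :
    Function.Surjective (pi α h) := by
  intro c
  induction c using Quotient.inductionOn with
  | h x => exact ⟨Quotient.mk _ (g • x), by simp [pi]⟩

theorem o_ge [Finite α] {A B : Subgroup G} {g : G} (h : ∀ b ∈ B, g⁻¹ * b * g ∈ A)
    (c : orbitRel.Quotient A α) : o α A + (pi α h ⁻¹' {c}).ncard ≤ o α B + 1 := by
  have h1 := Set.ncard_add_ncard_compl (pi α h ⁻¹' {c})
  have h2 := Set.ncard_add_ncard_compl ({c} : Set (orbitRel.Quotient A α))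
  have h3 : (({c} : Set (orbitRel.Quotient A α))ᶜ).ncard ≤ ((pi α h ⁻¹' {c})ᶜ).ncard := by
    refine le_trans (Set.ncard_le_ncard ?_) (Set.ncard_image_le (f := pi α h))
    intro z hz
    obtain ⟨w, rfl⟩ := pi_surj h z
    exact ⟨w, hz, rfl⟩
  rw [Set.ncard_singleton] at h2
  unfold o
  omega

theorem le_two_pow (d : ℕ) : 2 * d ≤ 2 ^ d := by
  induction d with
  | zero => simp
  | succ d ih =>
    rcases Nat.eq_zero_or_pos d with rfl | hd
    · simp
    · rw [pow_succ]; omega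

theorem step [Finite G] [Finite α] {A : Subgroup G} {g : G} {a : α}
    (h : ∀ b ∈ A ⊓ stabilizer G a, g⁻¹ * b * g ∈ A)
    (ih : ∀ x : G, g⁻¹ * x ∈ A →
      (T x (A ⊓ stabilizer G a)).ncard * 2 ^ o α (A ⊓ stabilizer G a) ≤ 2 ^ Nat.card α) :
    (T g A).ncard * 2 ^ o α A ≤ 2 ^ Nat.card α := by
  classical
  set B := A ⊓ stabilizer G a with hB
  set D := pi α h ⁻¹' {Quotient.mk (orbitRel A α) a} with hD
  have hex : ∀ δ : orbitRel.Quotient B α, ∃ x : G, g⁻¹ * x ∈ A ∧ (δ ∈ D → x • a = δ.out) := by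
    intro δ
    by_cases hδ : δ ∈ D
    · have h1 : pi α h (Quotient.mk _ δ.out) = Quotient.mk (orbitRel A α) a := by
        rw [Quotient.out_eq]; exact hδ
      obtain ⟨u, hu⟩ := Quotient.exact h1
      have hu' : (u : G) • a = g⁻¹ • δ.out := hu
      refine ⟨g * u, by simp, fun _ => ?_⟩
      rw [mul_smul, hu', smul_inv_smul]
    · exact ⟨g, by simp, fun h' => absurd h' hδ⟩
  choose X hXA hXa using hex
  have hDf : D.Finite := Set.toFinite D
  have hsub : (T g A).toFinite.toFinset ⊆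
      hDf.toFinset.biUnion fun δ => (T (X δ) B).toFinite.toFinset := by
    intro c hc
    simp only [Set.Finite.mem_toFinset, Finset.mem_biUnion] at hc ⊢
    obtain ⟨x, hx, rfl⟩ := hc
    have hδ : (Quotient.mk (orbitRel B α) (x • a)) ∈ D := by
      show Quotient.mk (orbitRel A α) (g⁻¹ • x • a) = Quotient.mk (orbitRel A α) a
      exact Quotient.sound ⟨⟨g⁻¹ * x, hx⟩, by
        show (g⁻¹ * x) • a = g⁻¹ • x • a
        rw [mul_smul]⟩
    refine ⟨_, hδ, ?_⟩
    set δ := Quotient.mk (orbitRel B α) (x • a) with hδdef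
    obtain ⟨b, hb⟩ : (orbitRel B α).r δ.out (x • a) := Quotient.exact (Quotient.out_eq δ)
    have hb' : (b : G) • x • a = δ.out := hb
    have hba : (b : G) • a = a := b.2.2
    have hbi : (b : G)⁻¹ • a = a := by rw [inv_smul_eq_iff, hba]
    refine ⟨b * x * (b : G)⁻¹, ⟨?_, ?_⟩, ?_⟩
    · have e : (X δ)⁻¹ * (b * x * (b : G)⁻¹) =
          (g⁻¹ * X δ)⁻¹ * (g⁻¹ * b * g) * (g⁻¹ * x) * (b : G)⁻¹ := by group
      rw [e]
      exact A.mul_mem (A.mul_mem (A.mul_mem (A.inv_mem (hXA δ)) (h b b.2)) hx) (A.inv_mem b.2.1)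
    · show ((X δ)⁻¹ * (b * x * (b : G)⁻¹)) • a = a
      rw [mul_smul, mul_smul, mul_smul, hbi, hb', ← hXa δ hδ, inv_smul_smul]
    · exact (ConjClasses.mk_eq_mk_iff_isConj.2 (isConj_iff.2 ⟨(b : G), rfl⟩)).symm
  have hcard : (T g A).ncard * 2 ^ o α B ≤ D.ncard * 2 ^ Nat.card α := by
    rw [Set.ncard_eq_toFinset_card _ (T g A).toFinite, Set.ncard_eq_toFinset_card _ hDf]
    calc _ ≤ (∑ δ ∈ hDf.toFinset, ((T (X δ) B).toFinite.toFinset).card) * 2 ^ o α B :=
          Nat.mul_le_mul_right _ ((Finset.card_le_card hsub).trans Finset.card_biUnion_le)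
      _ = ∑ δ ∈ hDf.toFinset, (T (X δ) B).ncard * 2 ^ o α B := by
          rw [Finset.sum_mul]
          refine Finset.sum_congr rfl fun δ _ => ?_
          rw [Set.ncard_eq_toFinset_card _ (T (X δ) B).toFinite]
      _ ≤ ∑ _δ ∈ hDf.toFinset, 2 ^ Nat.card α := Finset.sum_le_sum fun δ _ => ih _ (hXA δ)
      _ = _ := by rw [Finset.sum_const, smul_eq_mul]
  have ho := o_ge h (Quotient.mk (orbitRel A α) a)
  rw [← hD] at ho
  have h2 := le_two_pow D.ncard
  have h3 : 2 ^ o α A * 2 ^ D.ncard ≤ 2 ^ o α B * 2 := by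
    rw [← pow_add, ← pow_succ]
    exact Nat.pow_le_pow_right (by norm_num) ho
  have h4 : (T g A).ncard * 2 ^ o α A * 2 ^ D.ncard ≤ 2 ^ Nat.card α * 2 ^ D.ncard :=
    calc (T g A).ncard * 2 ^ o α A * 2 ^ D.ncard
        = (T g A).ncard * (2 ^ o α A * 2 ^ D.ncard) := by ring
      _ ≤ (T g A).ncard * (2 ^ o α B * 2) := Nat.mul_le_mul_left _ h3
      _ = ((T g A).ncard * 2 ^ o α B) * 2 := by ring
      _ ≤ (D.ncard * 2 ^ Nat.card α) * 2 := Nat.mul_le_mul_right _ hcard
      _ = 2 ^ Nat.card α * (2 * D.ncard) := by ring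
      _ ≤ _ := Nat.mul_le_mul_left _ h2
  exact Nat.le_of_mul_le_mul_right h4 (by positivity)

theorem main [Finite G] [Finite α] [FaithfulSMul G α] (n : ℕ) :
    ∀ (A : Subgroup G) (g : G) (a : α), Nat.card A ≤ n →
      (∀ b ∈ A ⊓ stabilizer G a, g⁻¹ * b * g ∈ A) →
      (T g A).ncard * 2 ^ o α A ≤ 2 ^ Nat.card α := by
  induction n with
  | zero =>
    intro A g a hn
    exact absurd hn (by have := Nat.card_pos (α := A); omega)
  | succ n ih =>
    intro A g a hn h
    by_cases hfix : ∀ (z : α), ∀ b ∈ A, b • z = z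
    · have h1 : (T g A).ncard ≤ 1 := by
        rw [← Set.ncard_singleton (ConjClasses.mk g)]
        refine Set.ncard_le_ncard ?_
        rintro c ⟨x, hx, rfl⟩
        have : g⁻¹ * x = 1 :=
          eq_of_smul_eq_smul (α := α) fun z => by rw [hfix z _ hx, one_smul]
        rw [Set.mem_singleton_iff, (inv_mul_eq_one.1 this)]
      calc _ ≤ 1 * 2 ^ Nat.card α :=
            Nat.mul_le_mul h1 (Nat.pow_le_pow_right (by norm_num) (o_le A))
        _ = _ := one_mul _
    · have hex : ∃ a' : α, (∃ b ∈ A, b • a' ≠ a') ∧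
          ∀ b ∈ A ⊓ stabilizer G a', g⁻¹ * b * g ∈ A := by
        by_cases ha : ∀ b ∈ A, b • a = a
        · push Not at hfix
          obtain ⟨z, b, hb, hz⟩ := hfix
          exact ⟨z, ⟨b, hb, hz⟩, fun c hc => h c ⟨hc.1, ha c hc.1⟩⟩
        · push Not at ha
          exact ⟨a, ha, h⟩
      obtain ⟨a', ⟨b, hb, hba⟩, h'⟩ := hex
      refine step h' fun x hx => ih _ x (x • a') ?_ ?_
      · have hlt : A ⊓ stabilizer G a' < A :=
          lt_of_le_of_ne inf_le_left fun e => hba (e.ge hb).2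
        have := Subgroup.card_le_of_le hlt.le
        have hne : Nat.card (A ⊓ stabilizer G a' : Subgroup G) ≠ Nat.card A := fun e =>
          hlt.ne (Subgroup.eq_of_le_of_card_ge hlt.le e.ge)
        omega
      · intro c hc
        refine ⟨?_, ?_⟩
        · have e : x⁻¹ * c * x = (g⁻¹ * x)⁻¹ * (g⁻¹ * c * g) * (g⁻¹ * x) := by group
          rw [e]
          exact A.mul_mem (A.mul_mem (A.inv_mem hx) (h' c hc.1)) hx
        · have hc2 : c • x • a' = x • a' := hc.2
          show (x⁻¹ * c * x) • a' = a'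
          rw [mul_smul, mul_smul, hc2, inv_smul_smul]

/-- `k(G) * 2 ^ (number of orbits) ≤ 2 ^ n`. -/
theorem card_conjClasses [Finite G] [Finite α] [FaithfulSMul G α] (a : α) :
    Nat.card (ConjClasses G) * 2 ^ o α (⊤ : Subgroup G) ≤ 2 ^ Nat.card α := by
  have h := main (α := α) _ (⊤ : Subgroup G) 1 a le_rfl fun _ _ => Subgroup.mem_top _
  have e : T (1 : G) ⊤ = Set.univ := by
    ext c
    obtain ⟨x, rfl⟩ := ConjClasses.mk_surjective c
    exact ⟨fun _ => trivial, fun _ => ⟨x, Subgroup.mem_top _, rfl⟩⟩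
  rwa [e, Set.ncard_univ] at h

end CL.ClsPath
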