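import Mathlib
import Cfsg.Agent.PERM.HallK
import Cfsg.Agent.PERM.Witt

/-!
A `k`-transitive group (`4 ≤ k < n`) induces the alternating group on some `(k + 1)`-set.
-/

set_option autoImplicit false

namespace CL.LW

open MulAction CL.InvT CL.Hall4 CL.HallK CL.MSS CL.Perm
open scoped Pointwise

variable {G Ω : Type*} [Group G] [MulAction G Ω]

theorem ind2_of_inv [Finite G] {k : ℕ}
    (hinv : ∀ x : G, x * x = 1 → ∀ S : Finset Ω, S.card = k + 1 → (∀ s ∈ S, x • s = s) → x = 1)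
    (hex : ∀ S : Finset Ω, S.card = k → ∃ x : G, x * x = 1 ∧ x ≠ 1 ∧ ∀ s ∈ S, x • s = s)
    (Δ : Finset Ω) (hΔ : Δ.card = k + 1) : Ind2 G Δ := by
  classical
  intro c hc d hd hcd
  set T := (Δ.erase c).erase d with hT
  have hTc : T.card + 1 = k := by
    have h1 := Finset.card_erase_add_one hc
    have h2 := Finset.card_erase_add_one (Finset.mem_erase.2 ⟨hcd.symm, hd⟩)
    rw [← hT] at h2
    omega
  have hcT : c ∉ T := by simp [hT]
  have hdT : d ∉ T := by simp [hT]
  obtain ⟨x, hx, hx1, hxS⟩ := hex (insert c T) (by rw [Finset.card_insert_of_notMem hcT, hTc])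
  obtain ⟨y, hy, hy1, hyS⟩ := hex (insert d T) (by rw [Finset.card_insert_of_notMem hdT, hTc])
  have xT : ∀ t ∈ T, x • t = t := fun t ht => hxS t (Finset.mem_insert_of_mem ht)
  have yT : ∀ t ∈ T, y • t = t := fun t ht => hyS t (Finset.mem_insert_of_mem ht)
  have xc : x • c = c := hxS c (Finset.mem_insert_self _ _)
  have yd : y • d = d := hyS d (Finset.mem_insert_self _ _)
  have uq : ∀ z : G, z * z = 1 → z ≠ 1 → (∀ t ∈ T, z • t = t) → ∀ a b, a ∉ T → b ∉ T →
      z • a = a → z • b = b → a = b := by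
    intro z hz hz1 hzT a b ha hb h1 h2
    by_contra hab
    refine hz1 (hinv z hz (insert a (insert b T)) ?_ ?_)
    · rw [Finset.card_insert_of_notMem (by simp [hab, ha]), Finset.card_insert_of_notMem hb, hTc]
    · intro s hs
      simp only [Finset.mem_insert] at hs
      rcases hs with rfl | rfl | hs
      exacts [h1, h2, hzT s hs]
  have out : ∀ w : G, (∀ t ∈ T, w • t = t) → ∀ a, a ∉ T → w • a ∉ T := fun w hw a ha ha' =>
    ha (by rw [← MulAction.injective w (hw _ ha')]; exact ha')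
  have pT : ∀ m : ℕ, ∀ t ∈ T, (x * y) ^ m • t = t := fun m t ht =>
    (stabilizer G t).pow_mem (show (x * y) • t = t by rw [mul_smul, yT t ht, xT t ht]) m
  have xi : x⁻¹ = x := inv_eq_of_mul_eq_one_right hx
  have yi : y⁻¹ = y := inv_eq_of_mul_eq_one_right hy
  have e1 : ∀ m : ℕ, x * (x * y) ^ m * x⁻¹ = ((x * y) ^ m)⁻¹ := fun m => by
    rw [← conj_pow, ← inv_pow, mul_inv_rev, xi, yi, ← mul_assoc, hx, one_mul]
  have e2 : ∀ m : ℕ, y * (x * y) ^ m * y⁻¹ = ((x * y) ^ m)⁻¹ := fun m => by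
    rw [← conj_pow, ← inv_pow, mul_inv_rev, xi, yi, mul_assoc, mul_assoc, hy, mul_one]
  have ho : Odd (orderOf (x * y)) := odd_of_inv fun m hm => by
    have wi := inv_eq_of_mul_eq_one_right hm
    by_contra hw1
    refine hcd (uq _ hm hw1 (pT m) c d hcT hdT ?_ ?_)
    · refine uq x hx hx1 xT _ _ (out _ (pT m) c hcT) hcT ?_ xc
      have := e1 m
      rw [wi, mul_inv_eq_iff_eq_mul] at this
      rw [comm_smul this, xc]
    · refine uq y hy hy1 yT _ _ (out _ (pT m) d hdT) hdT ?_ yd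
      have := e2 m
      rw [wi, mul_inv_eq_iff_eq_mul] at this
      rw [comm_smul this, yd]
  obtain ⟨j, hj⟩ := exists_conj hx hy ho
  have h1 : (x * y) ^ j • d = c := by
    refine uq x hx hx1 xT _ _ (out _ (pT j) d hdT) hcT ?_ xc
    nth_rw 1 [← hj]
    rw [mul_smul, mul_smul, inv_smul_smul, yd]
  have h2 : (x * (x * y) ^ j) • d = c := by rw [mul_smul, h1, xc]
  have h3 : x * (x * y) ^ j * (x * (x * y) ^ j) = 1 := by
    have := e1 j
    rw [xi] at this
    rw [← mul_assoc, this, inv_mul_cancel]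
  refine ⟨x * (x * y) ^ j, by rw [← h2, inv_smul_inv h3], h2, fun t ht t1 t2 => ?_⟩
  have : t ∈ T := by simp [hT, ht, t1, t2]
  rw [mul_smul, pT j t this, xT t this]

theorem exists_ind3 [Finite G] [Finite Ω] {k : ℕ} (hk : 4 ≤ k) (hn : k < Nat.card Ω)
    (hG : IsMultiplyPretransitive G Ω k) : ∃ Δ : Finset Ω, Δ.card = k + 1 ∧ Ind3 G Δ := by
  classical
  have : Fact (Nat.Prime 2) := ⟨Nat.prime_two⟩
  obtain ⟨Q, ⟨hQ, hQc⟩, hmax⟩ := (Set.toFinite {Q : Subgroup G | IsPGroup 2 Q ∧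
      k + 1 ≤ (fixedPoints Q Ω).ncard}).exists_maximal ⟨⊥, IsPGroup.of_bot, by
        have : fixedPoints (⊥ : Subgroup G) Ω = Set.univ := by
          ext x; simp
        rw [this, Set.ncard_univ]; omega⟩
  let N := Subgroup.normalizer (Q : Set G)
  let X := fixSub Q Ω
  let K := (toPermHom N X).range
  have hX : Nat.card X = (fixedPoints Q Ω).ncard := rfl
  have lift : ∀ x : K, x * x = 1 → ∃ y : N, toPermHom N X y = x ∧
      IsPGroup 2 (Subgroup.zpowers (y : G) ⊔ Q : Subgroup G) := by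
    rintro ⟨_, y, rfl⟩ hy
    obtain ⟨m, i, hm, hi⟩ := exists_pow_pElt Nat.prime_two y
    refine ⟨y ^ m, ?_, isPGroup_sup_of_normalizes (isPGroup_zpowers (k := i)
      (congrArg Subtype.val hi)) hQ ((Subgroup.zpowers_le).2 (y ^ m).2)⟩
    obtain ⟨j, rfl⟩ := Nat.odd_iff.2 (Nat.two_dvd_ne_zero.1 hm)
    have : toPermHom N X y * toPermHom N X y = 1 := congrArg Subtype.val hy
    rw [map_pow, pow_succ, pow_mul, pow_two, this, one_pow, one_mul]
  have triv : ∀ y : N, (y : G) ∈ Q → toPermHom N X y = 1 := fun y hy =>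
    Equiv.ext fun a => Subtype.ext (mem_fixSub.1 a.2 y hy)
  have fixle : ∀ (y : N) (S : Finset X), (∀ s ∈ S, y • s = s) →
      (Subgroup.zpowers (y : G) ⊔ Q : Subgroup G) ≤
        fixingSubgroup G (S.map (Function.Embedding.subtype _) : Set Ω) := by
    intro y S hS
    refine sup_le ((Subgroup.zpowers_le).2 ((mem_fixingSubgroup_iff G).2 ?_))
      fun g hg => (mem_fixingSubgroup_iff G).2 ?_
    · intro a ha
      obtain ⟨s, hs, rfl⟩ := Finset.mem_map.1 ha
      exact congrArg Subtype.val (hS s hs)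
    · intro a ha
      obtain ⟨s, -, rfl⟩ := Finset.mem_map.1 ha
      exact mem_fixSub.1 s.2 g hg
  have big : ∀ (y : N), IsPGroup 2 (Subgroup.zpowers (y : G) ⊔ Q : Subgroup G) →
      ∀ S : Finset X, S.card = k + 1 → (∀ s ∈ S, y • s = s) → (y : G) ∈ Q := by
    intro y hy S hS hfix
    refine hmax ⟨hy, ?_⟩ le_sup_right (Subgroup.mem_sup_left (Subgroup.mem_zpowers _))
    have := Set.ncard_le_ncard (le_fixingSubgroup_iff.1 (fixle y S hfix)) (Set.toFinite _)
    rwa [Set.ncard_coe_finset, Finset.card_map, hS] at this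
  suffices h : ∃ Δ : Finset X, Δ.card = k + 1 ∧ Ind3 K Δ by
    obtain ⟨Δ, h1, h2⟩ := h
    refine ⟨Δ.map (Function.Embedding.subtype _), by rw [Finset.card_map, h1], ?_⟩
    intro a ha b hb c hc hab hac hbc
    obtain ⟨a, ha', rfl⟩ := Finset.mem_map.1 ha
    obtain ⟨b, hb', rfl⟩ := Finset.mem_map.1 hb
    obtain ⟨c, hc', rfl⟩ := Finset.mem_map.1 hc
    obtain ⟨⟨_, y, rfl⟩, g1, g2, g3, g4⟩ := h2 a ha' b hb' c hc' (fun e => hab (by rw [e]))
      (fun e => hac (by rw [e])) (fun e => hbc (by rw [e]))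
    refine ⟨y, congrArg Subtype.val g1, congrArg Subtype.val g2, congrArg Subtype.val g3, ?_⟩
    intro x hx h1 h2 h3
    obtain ⟨x, hx', rfl⟩ := Finset.mem_map.1 hx
    exact congrArg Subtype.val (g4 x hx' (fun e => h1 (by rw [e])) (fun e => h2 (by rw [e]))
      (fun e => h3 (by rw [e])))
  by_cases hA : ∃ e : Fin k ↪ Ω, SylIn 2 Q (⊤ ⊓ fixingSubgroup G (Set.range e))
  · obtain ⟨e, he⟩ := hA
    refine Ok.exists_ind3 ⟨⟨fun x y => ?_⟩, fun x hx S hS hfix => ?_⟩ hk (by omega)
    · obtain ⟨g, hg⟩ := (witt_isMultiplyPretransitive ⊤ hG e he).exists_smul_eq x y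
      exact ⟨⟨_, g, rfl⟩, hg⟩
    · obtain ⟨y, hy, hp⟩ := lift x hx
      let e' : Fin k ↪ Ω := ((S.equivFinOfCardEq hS).symm.toEmbedding.trans
        (Function.Embedding.subtype _)).trans (Function.Embedding.subtype _)
      obtain ⟨g, hg⟩ := hG.exists_smul_eq e e'
      have hr : g • Set.range e = (S.map (Function.Embedding.subtype _) : Set Ω) := by
        ext a
        constructor
        · rintro ⟨_, ⟨i, rfl⟩, rfl⟩
          have : g • e i = e' i := DFunLike.congr_fun hg i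
          exact Finset.mem_map.2 ⟨_, ((S.equivFinOfCardEq hS).symm i).2, this.symm⟩
        · intro ha
          obtain ⟨s, hs, rfl⟩ := Finset.mem_map.1 ha
          obtain ⟨i, hi⟩ := (S.equivFinOfCardEq hS).symm.surjective ⟨s, hs⟩
          exact ⟨_, ⟨i, rfl⟩, (DFunLike.congr_fun hg i).trans
            (congrArg Subtype.val (congrArg Subtype.val hi))⟩
      have h1 := sylIn_smul ⊤ he g (by
        rw [hr]
        intro a ha
        obtain ⟨s, -, rfl⟩ := Finset.mem_map.1 ha
        exact s.2)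
      rw [hr] at h1
      have h2 := h1.max _ hp le_sup_right (le_inf le_top (fixle y S fun s hs =>
        (DFunLike.congr_fun hy s).trans (hfix s hs)))
      refine Subtype.ext (hy.symm.trans (triv y ?_))
      rw [← h2]
      exact Subgroup.mem_sup_left (Subgroup.mem_zpowers _)
  · cases nonempty_fintype X
    obtain ⟨T, -, hT⟩ := Finset.exists_subset_card_eq (s := (Finset.univ : Finset X)) (n := k + 1)
      (by rw [Finset.card_univ, ← Nat.card_eq_fintype_card]; omega)
    refine ⟨T, hT, (ind2_of_inv (fun x hx S hS hfix => ?_) (fun S hS => ?_) T hT).ind3⟩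
    · obtain ⟨y, hy, hp⟩ := lift x hx
      refine Subtype.ext (hy.symm.trans (triv y (big y hp S hS fun s hs => ?_)))
      exact (DFunLike.congr_fun hy s).trans (hfix s hs)
    · let e' : Fin k ↪ Ω := ((S.equivFinOfCardEq hS).symm.toEmbedding.trans
        (Function.Embedding.subtype _)).trans (Function.Embedding.subtype _)
      obtain ⟨R, hR, hQR⟩ := exists_sylIn_ge hQ (H := ⊤ ⊓ fixingSubgroup G (Set.range e'))
        (le_inf le_top (le_fixingSubgroup_iff.2 (by
          rintro _ ⟨i, rfl⟩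
          exact ((S.equivFinOfCardEq hS).symm i).1.2)))
      have hlt : Q < R := lt_of_le_of_ne hQR fun h => hA ⟨e', h ▸ hR⟩
      obtain ⟨y, ⟨hyR, hyN⟩, hyQ⟩ := SetLike.exists_of_lt (lt_inf_normalizer_of_lt hR.pgroup hlt)
      obtain ⟨i, hi⟩ := isPGroup_iff_forall_mem.1 hR.pgroup y hyR
      have hp : IsPGroup 2 (Subgroup.zpowers y ⊔ Q : Subgroup G) :=
        hR.pgroup.to_le (sup_le ((Subgroup.zpowers_le).2 hyR) hQR)
      let z : K := ⟨_, ⟨y, hyN⟩, rfl⟩
      have zS : ∀ s ∈ S, z • s = s := by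
        intro s hs
        obtain ⟨i, hi⟩ := (S.equivFinOfCardEq hS).symm.surjective ⟨s, hs⟩
        exact Subtype.ext ((mem_fixingSubgroup_iff G).1 (hR.le hyR).2 s
          ⟨i, congrArg Subtype.val (congrArg Subtype.val hi)⟩)
      by_contra hc
      push Not at hc
      have ho : Odd (orderOf z) := odd_of_inv fun m hm => by
        by_contra hm1
        obtain ⟨s, hs, hs'⟩ := hc _ hm hm1
        exact hs' ((stabilizer K s).pow_mem (zS s hs) m)
      have hz : z ^ 2 ^ i = 1 := Subtype.ext (by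
        change toPermHom N X ⟨y, hyN⟩ ^ 2 ^ i = 1
        rw [← map_pow, show (⟨y, hyN⟩ : N) ^ 2 ^ i = 1 from Subtype.ext hi, map_one])
      have hz1 : z = 1 := orderOf_eq_one_iff.1 (Nat.Coprime.eq_one_of_dvd
        (Nat.Coprime.pow_right i (Nat.coprime_two_right.2 ho)) (orderOf_dvd_of_pow_eq_one hz))
      refine hyQ (big ⟨y, hyN⟩ hp T hT fun s _ => ?_)
      have : z • s = s := by rw [hz1, one_smul]
      exact this

end CL.LW
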