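import Mathlib
import Cfsg.Agent.PERM.LW1
import Cfsg.Agent.PERM.Derange

/-!
Groups that are `t`-transitive, `(t+1)`- and `(t+2)`-homogeneous but not `(t+1)`-transitive.
-/

set_option autoImplicit false

namespace CL.LW

open MulAction SubMulAction CL.InvT CL.Hall4 CL.HallK
open scoped Pointwise

variable {G Ω : Type*} [Group G] [MulAction G Ω]

theorem card_fpf_le [Finite G] [Finite Ω] [IsPretransitive G Ω] [Nonempty Ω]
    (hfix : ∀ g : G, g ≠ 1 → ∀ a b : Ω, g • a = a → g • b = b → a = b) :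
    Nat.card {g : G // ∀ x : Ω, g • x ≠ x} + 1 ≤ Nat.card Ω := by
  classical
  cases nonempty_fintype G
  have h1 := CL.Perm.burnside_sum G Ω
  rw [(CL.Perm.card_orbits_eq_one_iff G Ω).2 inferInstance, one_mul,
    ← Finset.add_sum_erase _ _ (Finset.mem_univ 1), fixedBy_one_eq_univ, Nat.card_univ] at h1
  have h2 : ∑ g ∈ Finset.univ.erase (1 : G), Nat.card (fixedBy Ω g) ≤
      ∑ g ∈ Finset.univ.erase (1 : G), if ∀ x : Ω, g • x ≠ x then 0 else 1 := by
    refine Finset.sum_le_sum fun g hg => ?_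
    split_ifs with h
    · have : IsEmpty (fixedBy Ω g) := ⟨fun x => h x x.2⟩
      simp
    · exact Finite.card_le_one_iff_subsingleton.2
        ⟨fun a b => Subtype.ext (hfix g (Finset.ne_of_mem_erase hg) a b a.2 b.2)⟩
  have h3 : ((Finset.univ.erase (1 : G)).filter fun g => ∀ x : Ω, g • x ≠ x).card =
      Nat.card {g : G // ∀ x : Ω, g • x ≠ x} := by
    rw [Nat.card_eq_fintype_card, Fintype.card_subtype]
    congr 1
    ext g
    simp only [Finset.mem_filter, Finset.mem_erase, Finset.mem_univ, and_true, true_and]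
    refine ⟨fun h => h.2, fun h => ⟨?_, h⟩⟩
    rintro rfl
    exact h (Classical.arbitrary Ω) (one_smul _ _)
  rw [Finset.sum_ite, Finset.sum_const_zero, zero_add, Finset.sum_const, smul_eq_mul,
    mul_one] at h2
  have h4 := Finset.card_filter_add_card_filter_not (s := Finset.univ.erase (1 : G))
    fun g => ∀ x : Ω, g • x ≠ x
  have h5 := Finset.card_erase_add_one (Finset.mem_univ (1 : G))
  rw [Finset.card_univ, ← Nat.card_eq_fintype_card] at h5
  omega

theorem frob_bound [Finite G] [Finite Ω] [IsPretransitive G Ω]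
    (hfix : ∀ g : G, g ≠ 1 → ∀ a b : Ω, g • a = a → g • b = b → a = b) {h p : ℕ}
    (hG : Nat.card G = Nat.card Ω * h) (hp : p.Prime) (hpN : p ∣ Nat.card Ω) (hph : ¬ p ∣ h)
    (hcop : h.Coprime (p - 1)) : h * (p - 1) + 1 ≤ Nat.card Ω := by
  have := Fact.mk hp
  have hpos : 0 < Nat.card Ω := Nat.pos_of_mul_pos_right (hG ▸ Nat.card_pos (α := G))
  have : Nonempty Ω := (Nat.card_pos_iff.1 hpos).1
  have hst : ∀ a : Ω, Nat.card (stabilizer G a) = h := fun a => by
    have := (stabilizer G a).index_mul_card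
    rw [index_stabilizer_of_transitive, hG] at this
    exact Nat.eq_of_mul_eq_mul_left hpos this
  obtain ⟨y, hy⟩ := exists_prime_orderOf_dvd_card' (G := G) p (hG ▸ hpN.mul_right h)
  have fpf : ∀ g : G, orderOf g = p → ∀ x : Ω, g • x ≠ x := fun g hg x hx =>
    hph (hg ▸ hst x ▸ Subgroup.orderOf_dvd_natCard _ (show g ∈ stabilizer G x from hx))
  have cop : ∀ i : Fin (p - 1), (i.1 + 1).Coprime (orderOf y) := fun i => by
    rw [hy]
    exact (Nat.coprime_of_lt_prime i.1.succ_ne_zero (by have := i.2; omega) hp).symm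
  obtain ⟨a⟩ := ‹Nonempty Ω›
  let φ : stabilizer G a × Fin (p - 1) → {g : G // ∀ x : Ω, g • x ≠ x} := fun u =>
    ⟨u.1 * y ^ (u.2.1 + 1) * (u.1 : G)⁻¹, fpf _ (by
      rw [← MulAut.conj_apply, MulEquiv.orderOf_eq, (cop u.2).symm.orderOf_pow, hy])⟩
  have hφ : Function.Injective φ := by
    rintro ⟨k, i⟩ ⟨k', j⟩ e
    have e1 : (k : G) * y ^ (i.1 + 1) * (k : G)⁻¹ = k' * y ^ (j.1 + 1) * (k' : G)⁻¹ :=
      congrArg Subtype.val e
    obtain ⟨m, hm⟩ := exists_pow_eq_self_of_coprime (cop i)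
    set w := y ^ (i.1 + 1) with hw
    have how : orderOf w = p := by rw [hw, (cop i).symm.orderOf_pow, hy]
    set c : G := (k' : G)⁻¹ * k with hc
    have e2 : c * w * c⁻¹ = w ^ (m * (j.1 + 1)) := by
      rw [pow_mul, hm, hc]
      calc (k' : G)⁻¹ * k * w * ((k' : G)⁻¹ * k)⁻¹ = (k' : G)⁻¹ * (k * w * (k : G)⁻¹) * k' := by
            group
        _ = _ := by rw [e1]; group
    generalize m * (j.1 + 1) = l at e2
    have e3 : ∀ e : ℕ, c ^ e * w * (c ^ e)⁻¹ = w ^ l ^ e := by
      intro e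
      induction e with
      | zero => simp
      | succ e ih =>
        calc c ^ (e + 1) * w * (c ^ (e + 1))⁻¹ = c * (c ^ e * w * (c ^ e)⁻¹) * c⁻¹ := by
              rw [pow_succ']; group
          _ = _ := by rw [ih, ← conj_pow, e2, ← pow_mul, ← pow_succ']
    have hmp : l.Coprime p := by
      rw [Nat.coprime_comm, hp.coprime_iff_not_dvd, ← how, orderOf_dvd_iff_pow_eq_one, ← e2]
      intro h1
      have : w = 1 := by simpa using h1
      rw [this, orderOf_one] at how
      exact hp.one_lt.ne how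
    have e4 : c ^ (p - 1) * w * (c ^ (p - 1))⁻¹ = w := by
      rw [e3]
      nth_rw 2 [← pow_one w]
      rw [pow_eq_pow_iff_modEq, how, ← Nat.totient_prime hp]
      exact Nat.ModEq.pow_totient hmp
    have hca : c ∈ stabilizer G a := (k'⁻¹ * k).2
    have e5 : c ^ (p - 1) = 1 := by
      by_contra h1
      have h2 : c ^ (p - 1) • a = a := (stabilizer G a).pow_mem hca _
      refine fpf w how a (hfix _ h1 _ _ ?_ h2)
      rw [mul_inv_eq_iff_eq_mul] at e4
      rw [comm_smul e4, h2]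
    have e6 : c = 1 := orderOf_eq_one_iff.1 (Nat.eq_one_of_dvd_coprimes hcop
      (hst a ▸ Subgroup.orderOf_dvd_natCard _ hca) (orderOf_dvd_of_pow_eq_one e5))
    have e7 : k = k' := by
      have : k'⁻¹ * k = 1 := Subtype.ext e6
      exact (inv_mul_eq_one.1 this).symm
    subst e7
    have e8 : y ^ (i.1 + 1) = y ^ (j.1 + 1) := by simpa using e1
    rw [pow_eq_pow_iff_modEq, hy] at e8
    have := Nat.ModEq.eq_of_lt_of_lt e8 (by have := i.2; omega) (by have := j.2; omega)
    rw [show i = j from Fin.ext (by omega)]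
  have h1 := Nat.card_le_card_of_injective φ hφ
  rw [Nat.card_prod, hst, Nat.card_eq_fintype_card (α := Fin _), Fintype.card_fin] at h1
  have := card_fpf_le hfix
  omega

theorem frob_bound_fix [Finite G] [Finite Ω] {s : ℕ} (hG : IsMultiplyPretransitive G Ω (s + 1))
    (hs : s + 1 ≤ Nat.card Ω)
    (hfree : ∀ g : G, ∀ S : Finset Ω, S.card = s + 2 → (∀ x ∈ S, g • x = x) → g = 1) {h p : ℕ}
    (hc : Nat.card G = (Nat.card Ω).choose s * s.factorial * ((Nat.card Ω - s) * h))
    (hp : p.Prime) (hpN : p ∣ Nat.card Ω - s) (hph : ¬ p ∣ h) (hcop : h.Coprime (p - 1)) :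
    h * (p - 1) + 1 ≤ Nat.card Ω - s := by
  classical
  cases nonempty_fintype Ω
  obtain ⟨T, -, hT⟩ := Finset.exists_subset_card_eq (s := (Finset.univ : Finset Ω)) (n := s)
    (by rw [Finset.card_univ, ← Nat.card_eq_fintype_card]; omega)
  have hT' : (T : Set Ω).ncard = s := by rw [Set.ncard_coe_finset, hT]
  have h1 := ofFixingSubgroup.isMultiplyPretransitive G (T : Set Ω) (m := 1) (n := s + 1)
    (by rw [hT'])
  rw [is_one_pretransitive_iff] at h1
  have h2 := card_fix (G := G) T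
  have h3 : Nat.card (ofFixingSubgroup G (T : Set Ω)) = Nat.card Ω - s := by omega
  have h4 := IsMultiplyPretransitive.index_of_fixingSubgroup_eq (G := G) (T : Set Ω)
    (hT' ▸ isMultiplyPretransitive_of_le (n := s + 1) (by omega) hs)
  have h5 := (fixingSubgroup G (T : Set Ω)).index_mul_card
  rw [h4, hT', hc] at h5
  rw [← h3]
  refine frob_bound (G := fixingSubgroup G (T : Set Ω)) (fun g hg a b ha hb => ?_)
    (h3 ▸ Nat.eq_of_mul_eq_mul_left (Nat.mul_pos (Nat.choose_pos (by omega)) s.factorial_pos) h5)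
    hp (h3 ▸ hpN) hph hcop
  by_contra hab
  refine hg (Subtype.ext (hfree g (insert a.1 (insert b.1 T)) ?_ ?_))
  · rw [Finset.card_insert_of_notMem, Finset.card_insert_of_notMem b.2, hT]
    simp only [Finset.mem_insert, not_or]
    exact ⟨fun e => hab (Subtype.ext e), a.2⟩
  · intro x hx
    simp only [Finset.mem_insert] at hx
    rcases hx with rfl | rfl | hx
    exacts [congrArg Subtype.val ha, congrArg Subtype.val hb,
      (mem_fixingSubgroup_iff G).1 g.2 x hx]

theorem swap_mem_indSub [DecidableEq Ω] {Δ : Finset Ω} {a b : Δ} {g : G} (h1 : g • (a : Ω) = b)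
    (h2 : g • (b : Ω) = a) (h3 : ∀ x ∈ Δ, x ≠ a → x ≠ b → g • x = x) :
    Equiv.swap a b ∈ indSub G Δ := by
  refine ⟨g, fun x => ?_⟩
  by_cases ha : x = a
  · rw [ha, Equiv.swap_apply_left, h1]
  by_cases hb : x = b
  · rw [hb, Equiv.swap_apply_right, h2]
  rw [Equiv.swap_apply_of_ne_of_ne ha hb,
    h3 x x.2 (fun e => ha (Subtype.ext e)) fun e => hb (Subtype.ext e)]

theorem indSub_eq_top [DecidableEq Ω] {Δ : Finset Ω} (h : Ind2 G Δ) : indSub G Δ = ⊤ := by
  rw [eq_top_iff]
  intro σ hσ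
  clear hσ
  induction σ using Equiv.Perm.swap_induction_on with
  | one => exact one_mem _
  | swap_mul f x y hxy ih =>
    obtain ⟨g, g1, g2, g3⟩ := h x x.2 y y.2 fun e => hxy (Subtype.ext e)
    exact mul_mem (swap_mem_indSub g1 g2 g3) ih

theorem trans_of_ind [DecidableEq Ω] {j : ℕ} (hh : IsPretransitive G (Set.powersetCard Ω j))
    {Δ : Finset Ω} (hΔ : Δ.card = j) (h : indSub G Δ = ⊤) : IsMultiplyPretransitive G Ω j := by
  let e := (Δ.equivFinOfCardEq hΔ).symm
  have key : ∀ x : Fin j ↪ Ω, ∃ g : G, ∀ i, g • (e i : Ω) = x i := by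
    intro x
    obtain ⟨g, hg⟩ := hh.exists_smul_eq ⟨Finset.univ.map x, by simp⟩ ⟨Δ, hΔ⟩
    have hg' : g • Finset.univ.map x = Δ := congrArg Subtype.val hg
    let f : Δ → Δ := fun d => ⟨g • x (e.symm d), hg' ▸ Finset.smul_mem_smul_finset (by simp)⟩
    have hf : Function.Injective f := fun d d' hd =>
      e.symm.injective (x.injective (MulAction.injective g (congrArg Subtype.val hd)))
    obtain ⟨g', hg2⟩ : Equiv.ofBijective f hf.bijective_of_finite ∈ indSub G Δ :=
      h ▸ Subgroup.mem_top _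
    refine ⟨g⁻¹ * g', fun i => ?_⟩
    rw [mul_smul, hg2, inv_smul_eq_iff]
    simp [f]
  refine ⟨fun x y => ?_⟩
  obtain ⟨g, hg⟩ := key x
  obtain ⟨k, hk⟩ := key y
  refine ⟨k * g⁻¹, DFunLike.ext _ _ fun i => ?_⟩
  change (k * g⁻¹) • x i = y i
  rw [mul_smul, ← hg, inv_smul_smul, hk]

theorem choose_dvd [DecidableEq Ω] [Finite Ω] {j : ℕ}
    (hh : IsPretransitive G (Set.powersetCard Ω j)) (hj : j ≤ Nat.card Ω) :
    (Nat.card Ω).choose j ∣ Nat.card G := by
  have h := Set.powersetCard.card Ω j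
  obtain ⟨s⟩ : Nonempty (Set.powersetCard Ω j) :=
    (Nat.card_pos_iff.1 (h ▸ Nat.choose_pos hj)).1
  rw [← h, ← index_stabilizer_of_transitive G s]
  exact Subgroup.index_dvd_card _

theorem card_fixing_eq [DecidableEq Ω] {j : ℕ} (hh : IsPretransitive G (Set.powersetCard Ω j))
    {S T : Finset Ω} (hS : S.card = j) (hT : T.card = j) :
    Nat.card (fixingSubgroup G (S : Set Ω)) = Nat.card (fixingSubgroup G (T : Set Ω)) := by
  obtain ⟨g, hg⟩ := hh.exists_smul_eq ⟨S, hS⟩ ⟨T, hT⟩
  have hg' : g • S = T := congrArg Subtype.val hg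
  exact Nat.card_congr (fixingSubgroupEquivFixingSubgroup (g := g)
    (by rw [← hg', Finset.coe_smul_finset])).toEquiv

set_option synthInstance.maxSize 2000 in
theorem arith1 : ∀ h < (4 : ℕ), ∀ r < 3, 2 ≤ r → Odd h → r * (r * h - 1) ∣ 6 → h = 1 ∧ r = 2 := by
  decide

set_option synthInstance.maxSize 2000 in
theorem arith2 : ∀ h < (13 : ℕ), ∀ r < 7, 2 ≤ r → Odd h → r ∣ 6 → r * (r * h - 1) ∣ 24 →
    (h = 1 ∧ (r = 2 ∨ r = 3)) ∨ (h = 3 ∧ r = 3) := by
  decide

set_option synthInstance.maxSize 20000 in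
set_option synthInstance.maxHeartbeats 200000 in
theorem arith3 : ∀ h < (61 : ℕ), ∀ r < 25, 2 ≤ r → Odd h → r ∣ 24 → r * (r * h - 1) ∣ 120 →
    (h = 1 ∧ (r = 2 ∨ r = 3 ∨ r = 4 ∨ r = 6)) ∨ (h = 3 ∧ (r = 2 ∨ r = 3)) ∨ (h = 7 ∧ r = 3) := by
  decide +kernel

theorem core [DecidableEq Ω] [Finite Ω] [Finite G] [FaithfulSMul G Ω] {t : ℕ} (ht1 : 1 ≤ t)
    (hn : t + 2 ≤ Nat.card Ω) (ht : IsMultiplyPretransitive G Ω t)
    (hnt : ¬ IsMultiplyPretransitive G Ω (t + 1))
    (free : ∀ g : G, ∀ S : Finset Ω, S.card = t + 1 → (∀ x ∈ S, g • x = x) → g = 1)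
    (hh1 : IsPretransitive G (Set.powersetCard Ω (t + 1)))
    (hh2 : IsPretransitive G (Set.powersetCard Ω (t + 2))) :
    Nat.card Ω = t + 2 ∨ (Nat.card Ω = 5 ∧ t = 2 ∧ Nat.card G = 20) ∨
      (Nat.card Ω = 6 ∧ t = 3 ∧ Nat.card G = 120) ∨
      (Nat.card Ω = 9 ∧ t = 3 ∧ (Nat.card G = 504 ∨ Nat.card G = 1512)) := by
  cases nonempty_fintype Ω
  have hht := Set.powersetCard.isPretransitive_of_isMultiplyPretransitive G ht
  have H : Ok G Ω t := by
    refine ⟨ht, fun x hx S hS hfix => ?_⟩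
    by_contra hx1
    obtain ⟨Δ, -, hΔ⟩ := Finset.exists_subset_card_eq (s := (Finset.univ : Finset Ω)) (n := t + 1)
      (by rw [Finset.card_univ, ← Nat.card_eq_fintype_card]; omega)
    refine hnt (trans_of_ind hh1 hΔ (indSub_eq_top
      (ind2_of_inv (fun y _ => free y) (fun S' hS' => ?_) Δ hΔ)))
    obtain ⟨g, hg⟩ := hht.exists_smul_eq ⟨S, hS⟩ ⟨S', hS'⟩
    have hg' : g • S = S' := congrArg Subtype.val hg
    refine ⟨g * x * g⁻¹, ?_, by simpa using hx1, fun s hs => ?_⟩
    · calc g * x * g⁻¹ * (g * x * g⁻¹) = g * (x * x) * g⁻¹ := by group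
        _ = 1 := by rw [hx]; group
    · rw [← hg'] at hs
      obtain ⟨s, hs', rfl⟩ := Finset.mem_smul_finset.1 hs
      rw [mul_smul, mul_smul, inv_smul_smul, hfix s hs']
  obtain ⟨T, hT, a, ha, b, hb, hab⟩ : ∃ T : Finset Ω, T.card + 1 = t + 1 ∧ ∃ a ∉ T, ∃ b ∉ T,
      ∀ g : G, (∀ x ∈ T, g • x = x) → g • a ≠ b := by
    by_contra hc
    push Not at hc
    exact hnt (CL.Perm.isMultiplyPretransitive_of_forall_card_eq
      (by rw [← Nat.card_eq_fintype_card]; omega) hc)
  have hT : T.card = t := by omega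
  have hT' : (T : Set Ω).ncard = t := by rw [Set.ncard_coe_finset, hT]
  set K := fixingSubgroup G (T : Set Ω) with hK
  have h1 := IsMultiplyPretransitive.index_of_fixingSubgroup_eq (G := G) (T : Set Ω) (hT' ▸ ht)
  have h2 := K.index_mul_card
  rw [h1, hT'] at h2
  have h3 := card_fix (G := G) T
  have h4 := Nat.card_congr (selfEquivOrbitsQuotientProd (G := K)
    (X := ofFixingSubgroup G (T : Set Ω)) fun x => by
      rw [eq_bot_iff]
      intro g hg
      refine Subtype.ext (free g (insert x.1 T) (by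
        rw [Finset.card_insert_of_notMem x.2, hT]) fun s hs => ?_)
      rcases Finset.mem_insert.1 hs with rfl | hs
      exacts [congrArg Subtype.val hg, (mem_fixingSubgroup_iff G).1 g.2 s hs])
  rw [Nat.card_prod] at h4
  have : Nonempty (ofFixingSubgroup G (T : Set Ω)) := ⟨⟨a, ha⟩⟩
  have h5 : Nat.card (orbitRel.Quotient K (ofFixingSubgroup G (T : Set Ω))) ≠ 1 := by
    rw [Ne, CL.Perm.card_orbits_eq_one_iff]
    intro h
    obtain ⟨g, hg⟩ := h.exists_smul_eq ⟨a, ha⟩ ⟨b, hb⟩
    exact hab g (fun x hx => (mem_fixingSubgroup_iff G).1 g.2 x hx) (congrArg Subtype.val hg)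
  have hodd : Odd (Nat.card K) := by
    by_contra ho
    have := Fact.mk Nat.prime_two
    obtain ⟨x, hx⟩ := exists_prime_orderOf_dvd_card' (G := K) 2
      (even_iff_two_dvd.1 (Nat.not_odd_iff_even.1 ho))
    have := H.odd (g := x.1) T hT fun s hs => (mem_fixingSubgroup_iff G).1 x.2 s hs
    rw [Subgroup.orderOf_coe, hx] at this
    exact absurd this (by decide)
  have hfree1 : Nat.card K = 1 →
      ∀ g : G, ∀ S : Finset Ω, S.card = t → (∀ x ∈ S, g • x = x) → g = 1 := by
    intro h g S hS hg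
    have := (card_fixing_eq hht hS hT).trans h
    rw [Subgroup.card_eq_one] at this
    rw [← Subgroup.mem_bot, ← this]
    exact (mem_fixingSubgroup_iff G).2 hg
  obtain ⟨u, hu⟩ := choose_dvd hh1 (by omega)
  obtain ⟨v, hv⟩ := choose_dvd hh2 hn
  change _ = Nat.card (orbitRel.Quotient K (ofFixingSubgroup G (T : Set Ω))) * _ at h4
  generalize Nat.card (orbitRel.Quotient K (ofFixingSubgroup G (T : Set Ω))) = r at h4 h5
  have hpos : 0 < Nat.card K := Nat.card_pos
  generalize Nat.card K = h at *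
  have hnt' : Nat.card Ω - t = r * h := by omega
  have hr : 2 ≤ r := by
    rcases r with _ | _ | r
    · omega
    · omega
    · omega
  have c1 := Nat.choose_succ_right_eq (Nat.card Ω) t
  have c2 := Nat.choose_succ_right_eq (Nat.card Ω) (t + 1)
  have cp : 0 < (Nat.card Ω).choose t * h := Nat.mul_pos (Nat.choose_pos (by omega)) hpos
  have d1 : r * u = (t + 1).factorial := by
    refine Nat.eq_of_mul_eq_mul_left cp ?_
    calc _ = (Nat.card Ω).choose t * (Nat.card Ω - t) * u := by rw [hnt']; ring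
      _ = Nat.card G * (t + 1) := by rw [← c1, hu]; ring
      _ = _ := by rw [← h2, Nat.factorial_succ]; ring
  have d2 : r * (r * h - 1) * v = (t + 2).factorial := by
    refine Nat.eq_of_mul_eq_mul_left cp ?_
    have e : r * h - 1 = Nat.card Ω - (t + 1) := by omega
    calc _ = (Nat.card Ω).choose t * (Nat.card Ω - t) * (Nat.card Ω - (t + 1)) * v := by
          rw [hnt', e]; ring
      _ = (Nat.card Ω).choose (t + 1) * (Nat.card Ω - (t + 1)) * (t + 1) * v := by
          rw [← c1]; ring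
      _ = Nat.card G * (t + 1) * (t + 2) := by rw [← c2, hv]; ring
      _ = _ := by rw [← h2, Nat.factorial_succ, Nat.factorial_succ]; ring
  have d1' : r ∣ (t + 1).factorial := ⟨u, d1.symm⟩
  have d2' : r * (r * h - 1) ∣ (t + 2).factorial := ⟨v, d2.symm⟩
  have b1 := Nat.le_of_dvd (Nat.factorial_pos _) d1'
  have b2 : 2 * (2 * h - 1) ≤ (t + 2).factorial :=
    (Nat.mul_le_mul hr (Nat.sub_le_sub_right (Nat.mul_le_mul_right h hr) 1)).trans
      (Nat.le_of_dvd (Nat.factorial_pos _) d2')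
  obtain rfl | rfl | rfl | ht4 : t = 1 ∨ t = 2 ∨ t = 3 ∨ 4 ≤ t := by omega
  · norm_num [Nat.factorial] at b1 b2 d2'
    obtain ⟨rfl, rfl⟩ := arith1 h (by omega) r (by omega) hr hodd d2'
    omega
  · norm_num [Nat.factorial] at b1 b2 d1' d2'
    obtain ⟨rfl, rfl | rfl⟩ | ⟨rfl, rfl⟩ := arith2 h (by omega) r (by omega) hr hodd d1' d2'
    · omega
    · have e : Nat.card Ω = 5 := by omega
      rw [e] at h2
      exact Or.inr (Or.inl ⟨e, rfl, h2.symm⟩)
    · have e : Nat.card Ω = 11 := by omega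
      have := frob_bound_fix (s := 1) ht (by omega) free (h := 3) (p := 5) (by rw [← h2, e]; rfl)
        Nat.prime_five (by rw [e]; norm_num) (by norm_num) (by norm_num)
      omega
  · norm_num [Nat.factorial] at b1 b2 d1' d2'
    obtain ⟨rfl, rfl | rfl | rfl | rfl⟩ | ⟨rfl, rfl | rfl⟩ | ⟨rfl, rfl⟩ :=
      arith3 h (by omega) r (by omega) hr hodd d1' d2'
    · omega
    · have e : Nat.card Ω = 6 := by omega
      rw [e] at h2
      exact Or.inr (Or.inr (Or.inl ⟨e, rfl, h2.symm⟩))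
    · have e : Nat.card Ω = 7 := by omega
      have := frob_bound_fix (s := 1) (isMultiplyPretransitive_of_le (n := 3) (by omega) (by omega))
        (by omega) (hfree1 rfl) (h := 5) (p := 3) (by rw [← h2, e]; rfl)
        Nat.prime_three (by rw [e]; norm_num) (by norm_num) (by norm_num)
      omega
    · have e : Nat.card Ω = 9 := by omega
      rw [e] at h2
      exact Or.inr (Or.inr (Or.inr ⟨e, rfl, Or.inl h2.symm⟩))
    · have e : Nat.card Ω = 9 := by omega
      rw [e] at h2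
      exact Or.inr (Or.inr (Or.inr ⟨e, rfl, Or.inr h2.symm⟩))
    · have e : Nat.card Ω = 12 := by omega
      have := frob_bound_fix (s := 2) ht (by omega) free (h := 3) (p := 5) (by rw [← h2, e]; rfl)
        Nat.prime_five (by rw [e]; norm_num) (by norm_num) (by norm_num)
      omega
    · have e : Nat.card Ω = 24 := by omega
      have := frob_bound_fix (s := 2) ht (by omega) free (h := 7) (p := 11) (by rw [← h2, e]; rfl)
        (by norm_num) (by rw [e]; norm_num) (by norm_num) (by norm_num)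
      omega
  · left
    by_contra hne
    by_cases h4' : t + 4 ≤ Nat.card Ω
    · have hs := H.sharp ht4 h4'
      obtain h7 | ⟨h5', h7⟩ := sharp_cases hs ht4 (by omega)
      · omega
      have e : r * h = 7 := by omega
      have hr7 : r = 7 := ((Nat.dvd_prime Nat.prime_seven).1 ⟨h, e.symm⟩).resolve_left (by omega)
      subst hr7
      obtain rfl | rfl : t = 4 ∨ t = 5 := by omega
      · exact absurd d1' (by decide)
      · exact absurd d1' (by decide)
    · exact hnt (H.succ_of_three ht4 (by omega))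

end CL.LW
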