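import Mathlib
import Mathlib.LinearAlgebra.Matrix.GeneralLinearGroup.Defs
import Mathlib.Data.ZMod.Basic
import Mathlib.GroupTheory.OrderOfElement
import Mathlib.LinearAlgebra.Matrix.Notation

/-!
A certificate checker for: a finite set of `2 × 2` invertible matrices over `ZMod p` generates a
group acting regularly on the non-zero vectors.
-/

set_option autoImplicit false

namespace CL.RegMat2

open Matrix

/-- The matrix with the four given natural entries. -/
def mat (p : ℕ) (q : ℕ × ℕ × ℕ × ℕ) : Matrix (Fin 2) (Fin 2) (ZMod p) :=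
  !![(q.1 : ZMod p), (q.2.1 : ZMod p); (q.2.2.1 : ZMod p), (q.2.2.2 : ZMod p)]

/-- The certificate check. `T1 a c`, `T2 a c` give the second column of the group element with first
column `(a, c)`; `D` is a distance function to the first basis vector. -/
def chk (p : ℕ) (gens : List (ℕ × ℕ × ℕ × ℕ)) (T1 T2 D : ℕ → ℕ → ℕ) : Bool :=
  (T1 1 0 == 0 && T2 1 0 == 1) &&
  (List.range p).all fun a => (List.range p).all fun c =>
    (gens.all fun q =>
      T1 ((q.1 * a + q.2.1 * c) % p) ((q.2.2.1 * a + q.2.2.2 * c) % p) % p ==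
        (q.1 * T1 a c + q.2.1 * T2 a c) % p &&
      T2 ((q.1 * a + q.2.1 * c) % p) ((q.2.2.1 * a + q.2.2.2 * c) % p) % p ==
        (q.2.2.1 * T1 a c + q.2.2.2 * T2 a c) % p) &&
    ((a == 0 && c == 0) || (a == 1 && c == 0) || gens.any fun q =>
      D ((q.1 * a + q.2.1 * c) % p) ((q.2.2.1 * a + q.2.2.2 * c) % p) < D a c)

theorem regular_of_chk (p : ℕ) (hp : 1 < p) (gens : List (ℕ × ℕ × ℕ × ℕ)) (T1 T2 D : ℕ → ℕ → ℕ)
    (hchk : chk p gens T1 T2 D = true) (S : Set (GL (Fin 2) (ZMod p)))
    (hS : ∀ g ∈ S, ∃ q ∈ gens, (g : Matrix (Fin 2) (Fin 2) (ZMod p)) = mat p q)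
    (hS' : ∀ q ∈ gens, ∃ g ∈ S, (g : Matrix (Fin 2) (Fin 2) (ZMod p)) = mat p q) :
    Nat.card (Subgroup.closure S) = p ^ 2 - 1 ∧ ∀ v w : Fin 2 → ZMod p, v ≠ 0 → w ≠ 0 →
      ∃! h : Subgroup.closure S, Matrix.mulVec ((h : GL (Fin 2) (ZMod p)) :
        Matrix (Fin 2) (Fin 2) (ZMod p)) v = w := by
  have : NeZero p := ⟨by omega⟩
  have : Fact (1 < p) := ⟨hp⟩
  simp only [chk, Bool.and_eq_true, beq_iff_eq, List.all_eq_true, List.mem_range, Bool.or_eq_true,
    List.any_eq_true, decide_eq_true_eq] at hchk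
  obtain ⟨⟨h10, h10'⟩, hall⟩ := hchk
  have hval : ∀ (x y : ℕ) (a c : ZMod p), ((x : ZMod p) * a + (y : ZMod p) * c).val =
      (x * a.val + y * c.val) % p := by
    intro x y a c
    rw [← ZMod.val_natCast]
    push_cast
    simp
  -- every element is determined by its first column
  have hdet : ∀ h ∈ Subgroup.closure S,
      (h : Matrix (Fin 2) (Fin 2) (ZMod p)) 0 1 = T1 (h.1 0 0).val (h.1 1 0).val ∧
      (h : Matrix (Fin 2) (Fin 2) (ZMod p)) 1 1 = T2 (h.1 0 0).val (h.1 1 0).val := by
    intro h hh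
    rw [← Subgroup.mem_toSubmonoid, Subgroup.closure_toSubmonoid_of_finite] at hh
    induction hh using Submonoid.closure_induction_left with
    | one => simp [ZMod.val_one, h10, h10']
    | mul_left g hg h hh ih =>
      obtain ⟨q, hq, hgq⟩ := hS g hg
      obtain ⟨e1, e2⟩ := (hall _ (ZMod.val_lt (h.1 0 0)) _ (ZMod.val_lt (h.1 1 0))).1 q hq
      have e1' := congrArg (Nat.cast : ℕ → ZMod p) e1
      have e2' := congrArg (Nat.cast : ℕ → ZMod p) e2
      rw [ZMod.natCast_mod, ZMod.natCast_mod] at e1' e2'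
      simp only [Units.val_mul, hgq, mat, Matrix.mul_apply, Fin.sum_univ_two, of_apply, cons_val',
        cons_val_zero, cons_val_one, cons_val_fin_one, hval]
      rw [e1', e2', ih.1, ih.2]
      push_cast
      exact ⟨rfl, rfl⟩
  let e : Fin 2 → ZMod p := ![1, 0]
  have hinj : ∀ h k : Subgroup.closure S, (h.1.1).mulVec e = (k.1.1).mulVec e → h = k := by
    intro h k hk
    have h0 := congrFun hk 0
    have h1 := congrFun hk 1
    simp only [mulVec, dotProduct, Fin.sum_univ_two, e, cons_val_zero, cons_val_one, mul_one,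
      mul_zero, add_zero, cons_val_fin_one] at h0 h1
    ext i j
    fin_cases i <;> fin_cases j
    · exact h0
    · exact ((hdet _ h.2).1.trans (by rw [h0, h1])).trans (hdet _ k.2).1.symm
    · exact h1
    · exact ((hdet _ h.2).2.trans (by rw [h0, h1])).trans (hdet _ k.2).2.symm
  have hmul : ∀ (h k : Subgroup.closure S) (v : Fin 2 → ZMod p),
      ((h * k).1.1).mulVec v = (h.1.1).mulVec ((k.1.1).mulVec v) := by
    intro h k v
    rw [Matrix.mulVec_mulVec]
    rfl
  have hne : ∀ (h : Subgroup.closure S) (v : Fin 2 → ZMod p), v ≠ 0 → (h.1.1).mulVec v ≠ 0 := by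
    intro h v hv h0
    apply hv
    have := hmul h⁻¹ h v
    rw [h0, inv_mul_cancel, mulVec_zero] at this
    simpa using this
  have hsurj : ∀ (n : ℕ) (v : Fin 2 → ZMod p), v ≠ 0 → D (v 0).val (v 1).val = n →
      ∃ h : Subgroup.closure S, (h.1.1).mulVec e = v := by
    intro n
    induction n using Nat.strong_induction_on with
    | _ n ih =>
      intro v hv hD
      rcases (hall _ (ZMod.val_lt (v 0)) _ (ZMod.val_lt (v 1))).2 with (⟨h0, h1⟩ | ⟨h0, h1⟩) | h
      · exfalso
        apply hv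
        ext i
        fin_cases i
        · exact (ZMod.val_eq_zero _).1 h0
        · exact (ZMod.val_eq_zero _).1 h1
      · refine ⟨1, ?_⟩
        ext i
        fin_cases i
        · have : v 0 = 1 := by
            apply ZMod.val_injective
            rw [h0, ZMod.val_one]
          simp [e, this]
        · have : v 1 = 0 := (ZMod.val_eq_zero _).1 h1
          simp [e, this]
      · obtain ⟨q, hq, hlt⟩ := h
        obtain ⟨g, hg, hgq⟩ := hS' q hq
        let g' : Subgroup.closure S := ⟨g, Subgroup.subset_closure hg⟩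
        obtain ⟨k, hk⟩ := ih _ (hD ▸ hlt) ((g'.1.1).mulVec v) (hne g' v hv) (by
          simp only [g', hgq, mat, mulVec, dotProduct, Fin.sum_univ_two, of_apply, cons_val',
            cons_val_zero, cons_val_one, cons_val_fin_one, hval])
        refine ⟨g'⁻¹ * k, ?_⟩
        rw [hmul, hk, ← hmul, inv_mul_cancel]
        simp
  have he : e ≠ 0 := by
    intro h
    have := congrFun h 0
    simp [e] at this
  constructor
  · have : Nat.card (Subgroup.closure S) = Nat.card {v : Fin 2 → ZMod p // v ≠ 0} := by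
      refine Nat.card_congr (Equiv.ofBijective (fun h => ⟨(h.1.1).mulVec e, hne h e he⟩) ⟨?_, ?_⟩)
      · intro h k hk
        exact hinj h k (congrArg Subtype.val hk)
      · rintro ⟨v, hv⟩
        obtain ⟨h, hh⟩ := hsurj _ v hv rfl
        exact ⟨h, Subtype.ext hh⟩
    rw [this, Nat.card_eq_fintype_card, Fintype.card_subtype_compl]
    simp [ZMod.card]
  · intro v w hv hw
    obtain ⟨h, rfl⟩ := hsurj _ v hv rfl
    obtain ⟨k, rfl⟩ := hsurj _ w hw rfl
    refine ⟨k * h⁻¹, ?_, ?_⟩
    · beta_reduce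
      rw [← hmul, inv_mul_cancel_right]
    · intro y hy
      rw [← hmul] at hy
      rw [← hinj _ _ hy, mul_inv_cancel_right]

end CL.RegMat2
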