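import Mathlib
import Cfsg.Agent.FGS.SemiReg

/-!
3/2-transitive groups: primitive or Frobenius (Wielandt); regular normal subgroups
(Isaacs–Passman).
-/

set_option autoImplicit false

namespace CL.ThreeHalf

open Subgroup MulAction
open scoped Pointwise

variable {G Ω : Type*} [Group G] [Finite G] [MulAction G Ω] [Finite Ω]

/-- All orbits of the stabilizer of `a` on the other points have the same length. -/
def Half (G : Type*) {Ω : Type*} [Group G] [MulAction G Ω] (a : Ω) : Prop :=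
  ∀ b c : Ω, b ≠ a → c ≠ a →
    (stabilizer G b).relIndex (stabilizer G a) = (stabilizer G c).relIndex (stabilizer G a)

namespace Half

variable {a : Ω} (h : Half G a)
include h

omit [Finite Ω] in
theorem symm {b c : Ω} (hb : b ≠ a) (hc : c ≠ a)
    (h1 : stabilizer G a ⊓ stabilizer G b ≤ stabilizer G c) :
    stabilizer G a ⊓ stabilizer G c ≤ stabilizer G b := by
  have h2 := relIndex_inf_mul_relIndex (stabilizer G b) (stabilizer G c) (stabilizer G a)
  rw [← inf_relIndex_right (stabilizer G b ⊓ stabilizer G c), inf_right_comm,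
    inf_eq_left.2 ((inf_comm _ _).trans_le h1), inf_relIndex_right (stabilizer G b), h b c hb hc,
    mul_eq_right₀ (show (stabilizer G c).relIndex (stabilizer G a) ≠ 0 from
      index_ne_zero_of_finite),
    relIndex_eq_one, inf_comm] at h2
  exact h2

omit [Finite G] in
theorem coprime {Y : Set Ω} (ha : a ∈ Y) (hY : ∀ g ∈ stabilizer G a, ∀ x ∈ Y, g • x ∈ Y) {b : Ω}
    (hb : b ≠ a) : Y.ncard.Coprime ((stabilizer G b).relIndex (stabilizer G a)) := by
  obtain ⟨r, hr⟩ := CL.SR.dvd_ncard_of_orbits (stabilizer G a)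
    ((stabilizer G b).relIndex (stabilizer G a)) (Y \ {a})
    (fun g hg x hx => ⟨hY g hg x hx.1, fun e => hx.2
      (smul_left_cancel g (e.trans (mem_stabilizer_iff.1 hg).symm))⟩)
    fun x hx => (h b x hb hx.2).dvd
  rw [← Set.ncard_sdiff_singleton_add_one ha, hr]
  simp

theorem key {X : Set Ω} (ha : a ∉ X)
    (hX : ∀ x ∈ X, ∀ g ∈ stabilizer G a ⊓ stabilizer G x, g • X = X)
    (hc : ∀ b, b ≠ a → X.ncard.Coprime ((stabilizer G b).relIndex (stabilizer G a)))
    {x y : Ω} (hx : x ∈ X) (hy : y ∈ X) : stabilizer G a ⊓ stabilizer G x ≤ stabilizer G y := by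
  set L := stabilizer G X ⊓ stabilizer G a
  have h1 : ∀ x ∈ X, stabilizer G a ⊓ stabilizer G x ≤ L := fun x hx g hg => ⟨hX x hx g hg, hg.1⟩
  have h2 : ∀ x ∈ X, (stabilizer G x).relIndex L * (stabilizer G X).relIndex (stabilizer G a) =
      (stabilizer G x).relIndex (stabilizer G a) := fun x hx => by
    rw [relIndex_inf_mul_relIndex, ← inf_relIndex_right, inf_right_comm, inf_eq_left.2
      ((inf_comm (stabilizer G a) _ ▸ h1 x hx).trans inf_le_left), inf_relIndex_right]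
  have h3 : ∀ x ∈ X, x ≠ a := fun x hx e => ha (e ▸ hx)
  have h4 := CL.SR.dvd_ncard_of_orbits L ((stabilizer G y).relIndex L) X
    (fun g hg x hx => (mem_stabilizer_iff.1 hg.1) ▸ Set.smul_mem_smul_set hx) fun z hz =>
    (mul_right_cancel₀ (index_ne_zero_of_finite (H := (stabilizer G X).subgroupOf (stabilizer G a)))
      ((h2 y hy).trans ((h y z (h3 y hy) (h3 z hz)).trans (h2 z hz).symm))).dvd
  exact (h1 x hx).trans (relIndex_eq_one.1
    (Nat.eq_one_of_dvd_coprimes (hc y (h3 y hy)) h4 ⟨_, (h2 y hy).symm⟩))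

end Half

omit [Finite G] [Finite Ω] in
theorem eq_bot_of_le [FaithfulSMul G Ω] {K : Subgroup G} (h : ∀ x : Ω, K ≤ stabilizer G x) :
    K = ⊥ :=
  eq_bot_iff.2 fun g hg => eq_of_smul_eq_smul fun x : Ω => by rw [one_smul]; exact h x hg

/-- **Wielandt**: a 3/2-transitive group is primitive or a Frobenius group. -/
theorem isPreprimitive [FaithfulSMul G Ω] [IsPretransitive G Ω] (h : ∀ a : Ω, Half G a) {a b : Ω}
    (hb : b ≠ a) (hab : stabilizer G a ⊓ stabilizer G b ≠ ⊥) : IsPreprimitive G Ω := by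
  refine IsPreprimitive.of_isTrivialBlock_base a fun {B} ha hB => ?_
  by_contra hc
  obtain ⟨h1, h2⟩ := not_or.1 hc
  obtain ⟨a', ha', ha1⟩ := (Set.not_subsingleton_iff.1 h1).exists_ne a
  have h3 : ∀ c ∉ B, ∀ x ∈ B, stabilizer G c ⊓ stabilizer G a ≤ stabilizer G x := by
    intro c hc x hx
    refine (h c).key hc (fun y hy g hg => hB.smul_eq_of_mem hy
      (by rwa [mem_stabilizer_iff.1 hg.2])) (fun y hy => ?_) ha hx
    obtain ⟨g, rfl⟩ := exists_smul_eq G a c
    rw [← Set.ncard_smul_set g B]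
    exact (h _).coprime (Set.smul_mem_smul_set ha) (fun k hk z hz => by
      rw [← (hB.translate g).smul_eq_of_mem (g := k) (Set.smul_mem_smul_set ha)
        (by rw [mem_stabilizer_iff.1 hk]; exact Set.smul_mem_smul_set ha)]
      exact Set.smul_mem_smul_set hz) hy
  have h4 : ∀ c ∉ B, stabilizer G a ⊓ stabilizer G a' ≤ stabilizer G c := fun c hc =>
    (h a).symm (fun e => hc (e ▸ ha)) ha1 (inf_comm (stabilizer G c) _ ▸ h3 c hc a' ha')
  obtain ⟨c, hc⟩ := (Set.ne_univ_iff_exists_notMem B).1 h2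
  have h5 : stabilizer G a ⊓ stabilizer G a' = ⊥ := eq_bot_of_le fun x => by
    by_cases hx : x ∈ B
    · exact (le_inf (h4 c hc) inf_le_left).trans (h3 c hc x hx)
    · exact h4 x hx
  exact hab (eq_bot_iff.2 (h5 ▸ le_inf inf_le_left ((h a).symm ha1 hb (h5 ▸ bot_le))))

/-- **Isaacs–Passman**: a regular normal subgroup of a non-Frobenius 3/2-transitive group is
abelian. -/
theorem comm_of_regular [FaithfulSMul G Ω] {a b : Ω} (h : Half G a)
    (hb : b ≠ a) (hab : stabilizer G a ⊓ stabilizer G b ≠ ⊥) (N : Subgroup G) [hN : N.Normal]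
    (hNt : IsPretransitive N Ω) (hNr : stabilizer N a = ⊥) {x y : G} (hx : x ∈ N) (hy : y ∈ N) :
    Commute x y := by
  have inj : ∀ x ∈ N, ∀ y ∈ N, x • a = y • a → x = y := fun x hx y hy e => by
    have : (⟨y⁻¹ * x, N.mul_mem (N.inv_mem hy) hx⟩ : N) ∈ stabilizer N a := by
      change (y⁻¹ * x) • a = a
      rw [mul_smul, e, inv_smul_smul]
    rw [hNr, mem_bot] at this
    exact (inv_mul_eq_one.1 (congrArg Subtype.val this)).symm
  have ne : ∀ x ∈ N, x ≠ 1 → x • a ≠ a := fun x hx h1 e =>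
    h1 (inj x hx 1 N.one_mem (by rwa [one_smul]))
  have hc : ∀ g ∈ stabilizer G a, ∀ x ∈ N, g ∈ stabilizer G (x • a) ↔ Commute g x := by
    intro g hg x hx
    have e : (g * x * g⁻¹) • a = g • x • a := by
      rw [mul_smul, mul_smul, mem_stabilizer_iff.1 (inv_mem hg)]
    rw [mem_stabilizer_iff, ← e]
    exact ⟨fun h' => mul_inv_eq_iff_eq_mul.1 (inj _ (hN.conj_mem x hx g) x hx h'),
      fun h' => by rw [h'.eq, mul_inv_cancel_right]⟩
  have hcard : Nat.card N = (Set.univ : Set Ω).ncard := by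
    rw [← orbit_eq_univ N a, ← MulAction.index_stabilizer, hNr, index_bot]
  have cl : ∀ x ∈ N, ∀ n ∈ N, ∀ g ∈ stabilizer G a, Commute g x → Commute g (n * x * n⁻¹) := by
    intro x hx n hn g hg hgx
    rcases eq_or_ne x 1 with rfl | hx1
    · simp
    let X : Set Ω := (fun z : N => (z : G) • a) '' orbit (ConjAct N) (⟨x, hx⟩ : N)
    have hX : ∀ w, w ∈ X ↔ ∃ n ∈ N, (n * x * n⁻¹) • a = w := fun w =>
      ⟨by rintro ⟨_, ⟨n, rfl⟩, rfl⟩; exact ⟨_, (ConjAct.ofConjAct n).2, rfl⟩,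
        by rintro ⟨n, hn, rfl⟩; exact ⟨_, ⟨ConjAct.toConjAct ⟨n, hn⟩, rfl⟩, rfl⟩⟩
    refine (hc g hg _ (hN.conj_mem x hx n)).1 (h.key (X := X) (fun h' => ?_) (fun w hw k hk => ?_)
      (fun c hc => ?_) ((hX _).2 ⟨1, N.one_mem, by simp⟩) ((hX _).2 ⟨n, hn, rfl⟩)
      ⟨hg, (hc g hg x hx).2 hgx⟩)
    · obtain ⟨n, -, e⟩ := (hX a).1 h'
      exact ne _ (hN.conj_mem x hx n) (by simpa using hx1) e
    · refine Set.eq_of_subset_of_ncard_le ?_ (Set.ncard_smul_set k X).ge
      obtain ⟨m, hm, rfl⟩ := (hX w).1 hw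
      have e := ((hc k hk.1 _ (hN.conj_mem x hx m)).1 hk.2).eq
      rintro _ ⟨w, hw, rfl⟩
      obtain ⟨n, hn, rfl⟩ := (hX w).1 hw
      refine (hX _).2 ⟨k * (n * m⁻¹) * k⁻¹ * m,
        N.mul_mem (hN.conj_mem _ (N.mul_mem hn (N.inv_mem hm)) k) hm, ?_⟩
      rw [show k * (n * m⁻¹) * k⁻¹ * m * x * (k * (n * m⁻¹) * k⁻¹ * m)⁻¹ =
        k * (n * m⁻¹) * k⁻¹ * (m * x * m⁻¹ * k) * (n * m⁻¹)⁻¹ * k⁻¹ by group, ← e, mul_smul,
        mem_stabilizer_iff.1 (inv_mem hk.1)]
      change _ = k • (n * x * n⁻¹) • a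
      rw [← mul_smul]
      congr 1
      group
    · refine (h.coprime (Set.mem_univ a) (fun _ _ _ _ => Set.mem_univ _) hc).coprime_dvd_left ?_
      rw [← hcard, Set.ncard_image_of_injective _ fun u v e => Subtype.ext (inj _ u.2 _ v.2 e),
        ← MulAction.index_stabilizer]
      exact index_dvd_card _
  have A : ∀ x ∈ N, ∀ y ∈ N, x ≠ 1 → y ≠ 1 → (∀ g ∈ stabilizer G a, Commute g x → Commute g y) →
      ∀ g ∈ stabilizer G a, Commute g y → Commute g x := fun x hx y hy hx1 hy1 h1 g hg h2 =>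
    (hc g hg x hx).1 (h.symm (ne x hx hx1) (ne y hy hy1)
      (fun k hk => (hc k hk.1 y hy).2 (h1 k hk.1 ((hc k hk.1 x hx).1 hk.2))) ⟨hg, (hc g hg y hy).2 h2⟩)
  rcases eq_or_ne x 1 with rfl | hx1
  · exact Commute.one_left y
  have B : ∀ y ∈ N, ¬ (∀ g ∈ stabilizer G a, Commute g x → Commute g y) → Commute x y := by
    intro y hy h1
    have hy1 : y ≠ 1 := by rintro rfl; exact h1 fun g _ _ => Commute.one_right g
    by_contra h2
    have hz : x * y * x⁻¹ * y⁻¹ ≠ 1 := fun e => h2 (by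
      rwa [mul_inv_eq_one, mul_inv_eq_iff_eq_mul] at e)
    refine h1 fun g hg h3 => A y hy _ (N.mul_mem (hN.conj_mem y hy x) (N.inv_mem hy)) hy1 hz
      (fun k hk h4 => (cl y hy x hx k hk h4).mul_right h4.inv_right) g hg ?_
    simpa [mul_assoc] using h3.mul_right (cl _ (N.inv_mem hx) y hy g hg h3.inv_right)
  by_cases h1 : ∀ g ∈ stabilizer G a, Commute g x → Commute g y
  swap
  · exact B y hy h1
  obtain ⟨w, hw, h2⟩ : ∃ w ∈ N, ¬ ∀ g ∈ stabilizer G a, Commute g x → Commute g w := by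
    by_contra h2
    push Not at h2
    have h5 : stabilizer G a ⊓ stabilizer G (x • a) = ⊥ := eq_bot_of_le fun c g hg => by
      obtain ⟨w, rfl⟩ := hNt.exists_smul_eq a c
      exact (hc g hg.1 w w.2).2 (h2 w w.2 g hg.1 ((hc g hg.1 x hx).1 hg.2))
    exact hab (eq_bot_iff.2 (h5 ▸ le_inf inf_le_left (h.symm (ne x hx hx1) hb (h5 ▸ bot_le))))
  simpa using (B _ (N.mul_mem hy hw) fun h3 => h2 fun g hg h4 => by
    simpa using (h1 g hg h4).inv_right.mul_right (h3 g hg h4)).mul_right (B w hw h2).inv_right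

end CL.ThreeHalf
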