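import Mathlib
import Cfsg.Agent.PERM.FCBasic

/-!
Generators and relations for groups with cyclic Sylow subgroups.
-/

namespace CL.FC

open Subgroup

variable {G : Type*} [Group G]

theorem conj_pow_eq {x y : G} {r : ℕ} (h : x⁻¹ * y * x = y ^ r) (i : ℕ) :
    (x ^ i)⁻¹ * y * x ^ i = y ^ r ^ i := by
  induction i with
  | zero => simp
  | succ i ih =>
    have h1 := conj_pow (i := r ^ i) (a := x⁻¹) (b := y)
    rw [inv_inv, h, ← pow_mul] at h1
    rw [pow_succ' r, h1, ← ih, pow_succ]; group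

theorem exists_gen_of_isZGroup [Finite G] [IsZGroup G] :
    ∃ (x y : G) (r : ℕ), closure {x, y} = ⊤ ∧ x⁻¹ * y * x = y ^ r ∧
      Nat.Coprime (r - 1) (orderOf y) ∧ Nat.Coprime (orderOf x) (orderOf y) ∧ 1 ≤ r ∧
      Nat.card G = orderOf x * orderOf y := by
  obtain ⟨H, hH⟩ := exists_right_complement'_of_coprime (IsZGroup.coprime_commutator_index G)
  have h1 : Abelianization G ≃* H := hH.symm.QuotientMulEquiv
  haveI : IsCyclic H := isCyclic_of_surjective _ h1.surjective
  haveI := IsZGroup.isCyclic_commutator G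
  obtain ⟨x, hx⟩ := (Subgroup.isCyclic_iff_exists_zpowers_eq_top H).mp inferInstance
  obtain ⟨y, hy⟩ := (Subgroup.isCyclic_iff_exists_zpowers_eq_top (commutator G)).mp inferInstance
  have hox : orderOf x = Nat.card H := by rw [← Nat.card_zpowers, hx]
  have hoy : orderOf y = Nat.card (commutator G) := by rw [← Nat.card_zpowers, hy]
  have hgen : closure {x, y} = ⊤ := by
    rw [eq_top_iff, ← hH.sup_eq_top, ← hx, ← hy, sup_le_iff, zpowers_le, zpowers_le]
    exact ⟨subset_closure (by simp), subset_closure (by simp)⟩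
  have hN : (zpowers y).Normal := hy ▸ inferInstance
  obtain ⟨r0, hr0⟩ : ∃ r : ℕ, y ^ r = x⁻¹ * y * x :=
    (mem_powers_iff_mem_zpowers.mpr (hN.conj_mem' y (mem_zpowers y) x))
  have hr : x⁻¹ * y * x = y ^ (r0 + orderOf y) := by rw [pow_add, pow_orderOf_eq_one, mul_one, hr0]
  have hr1 : 1 ≤ r0 + orderOf y := le_add_left (orderOf_pos y)
  refine ⟨x, y, r0 + orderOf y, hgen, hr, ?_, ?_, hr1, ?_⟩
  · generalize r0 + orderOf y = r at hr hr1
    haveI : (zpowers (y ^ (r - 1))).Normal := ⟨fun n hn g => by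
      obtain ⟨k, rfl⟩ := mem_zpowers_iff.mp hn
      obtain ⟨l, hl⟩ := mem_zpowers_iff.mp (hN.conj_mem y (mem_zpowers y) g)
      rw [← conj_zpow, ← conj_pow, ← hl, show (y ^ l) ^ (r - 1) = (y ^ (r - 1)) ^ l by
        rw [← zpow_natCast, ← zpow_natCast, ← zpow_mul, ← zpow_mul, mul_comm]]
      exact zpow_mem (zpow_mem (mem_zpowers _) _) _⟩
    have h2 : commutator G ≤ zpowers (y ^ (r - 1)) := by
      rw [← Subgroup.Normal.quotient_commutative_iff_commutator_le]
      have h3 : Commute (x : G ⧸ zpowers (y ^ (r - 1))) y := by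
        change _ = _
        rw [← QuotientGroup.mk_mul, ← QuotientGroup.mk_mul, QuotientGroup.eq]
        have : (x * y)⁻¹ * (y * x) = y⁻¹ * (x⁻¹ * y * x) := by group
        rw [this, hr, ← Nat.sub_add_cancel hr1, pow_succ', inv_mul_cancel_left, Nat.add_sub_cancel]
        exact mem_zpowers _
      have h4 : Subgroup.closure {(x : G ⧸ zpowers (y ^ (r - 1))), (y : G ⧸ zpowers (y ^ (r - 1)))} = ⊤ := by
        have := congrArg (Subgroup.map (QuotientGroup.mk' (zpowers (y ^ (r - 1))))) hgen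
        rwa [MonoidHom.map_closure, Set.image_pair, map_top_of_surjective _
          (QuotientGroup.mk'_surjective _)] at this
      refine ⟨⟨fun a b => ?_⟩⟩
      have h5 := isMulCommutative_closure (k := {(x : G ⧸ zpowers (y ^ (r - 1))),
        (y : G ⧸ zpowers (y ^ (r - 1)))}) (by
        rintro _ (rfl | rfl) _ (rfl | rfl)
        exacts [rfl, h3, h3.symm, rfl])
      rw [h4] at h5
      exact congrArg Subtype.val (h5.is_comm.comm ⟨a, trivial⟩ ⟨b, trivial⟩)
    have h3 : orderOf y ∣ orderOf (y ^ (r - 1)) := by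
      rw [← Nat.card_zpowers, ← Nat.card_zpowers, hy]
      exact card_dvd_of_le h2
    rw [orderOf_pow] at h3
    have h4 := Nat.le_of_dvd (Nat.div_pos (Nat.gcd_le_left _ (orderOf_pos y))
      (Nat.gcd_pos_of_pos_left _ (orderOf_pos y))) h3
    by_contra h5
    have h6 := Nat.div_lt_self (orderOf_pos y) (show 1 < (orderOf y).gcd (r - 1) by
      have := Nat.gcd_pos_of_pos_left (r - 1) (orderOf_pos y)
      rw [Nat.Coprime, Nat.gcd_comm] at h5
      omega)
    omega
  · rw [hox, hoy, ← hH.symm.index_eq_card]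
    exact (IsZGroup.coprime_commutator_index G).symm
  · rw [hox, hoy, mul_comm, hH.card_mul]

theorem card_le_of_rel {x y : G} {n m r : ℕ} (hn : 0 < n) (hm : 0 < m) (hx : x ^ n = 1)
    (hy : y ^ m = 1) (h : x⁻¹ * y * x = y ^ r) (hgen : closure {x, y} = ⊤) :
    Finite G ∧ Nat.card G ≤ n * m := by
  have key : ∀ g ∈ closure {x, y}, ∀ i j : ℕ, ∃ i' j' : ℕ, g * (x ^ i * y ^ j) = x ^ i' * y ^ j' := by
    have h1 : ∀ k i j : ℕ, ∃ i' j' : ℕ, x ^ k * (x ^ i * y ^ j) = x ^ i' * y ^ j' :=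
      fun k i j => ⟨k + i, j, by rw [pow_add, mul_assoc]⟩
    have h2 : ∀ k i j : ℕ, ∃ i' j' : ℕ, y ^ k * (x ^ i * y ^ j) = x ^ i' * y ^ j' := by
      intro k i j
      have h3 := conj_pow (i := k) (a := (x ^ i)⁻¹) (b := y)
      rw [inv_inv, conj_pow_eq h] at h3
      exact ⟨i, r ^ i * k + j, by rw [pow_add, pow_mul, h3]; group⟩
    intro g hg
    induction hg using closure_induction'' with
    | mem g hg =>
      rcases hg with rfl | rfl
      · simpa using h1 1
      · simpa using h2 1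
    | inv_mem g hg =>
      rcases hg with rfl | rfl
      · rw [show g⁻¹ = g ^ (n - 1) from
          inv_eq_of_mul_eq_one_left (by rw [← pow_succ, Nat.sub_add_cancel hn, hx])]
        exact h1 _
      · rw [show g⁻¹ = g ^ (m - 1) from
          inv_eq_of_mul_eq_one_left (by rw [← pow_succ, Nat.sub_add_cancel hm, hy])]
        exact h2 _
    | one => exact fun i j => ⟨i, j, one_mul _⟩
    | mul a b _ _ ha hb =>
      intro i j
      obtain ⟨i', j', h3⟩ := hb i j
      rw [mul_assoc, h3]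
      exact ha i' j'
  have hs : Function.Surjective (fun p : Fin n × Fin m => x ^ (p.1 : ℕ) * y ^ (p.2 : ℕ)) := by
    intro g
    obtain ⟨i, j, h1⟩ := key g (hgen ▸ mem_top g) 0 0
    refine ⟨(⟨i % n, Nat.mod_lt _ hn⟩, ⟨j % m, Nat.mod_lt _ hm⟩), ?_⟩
    simp only
    rw [← pow_eq_pow_mod i hx, ← pow_eq_pow_mod j hy, ← h1]; simp
  exact ⟨Finite.of_surjective _ hs, by simpa using Nat.card_le_card_of_surjective _ hs⟩

theorem nonempty_equiv_presented [Finite G] {x y : G} {r : ℕ} (hgen : closure {x, y} = ⊤)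
    (h : x⁻¹ * y * x = y ^ r) (hc : Nat.card G = orderOf x * orderOf y) :
    Nonempty (G ≃* PresentedGroup
      ({FreeGroup.of (0 : Fin 2) ^ orderOf x, FreeGroup.of (1 : Fin 2) ^ orderOf y,
        (FreeGroup.of (0 : Fin 2))⁻¹ * FreeGroup.of 1 * FreeGroup.of 0 *
          (FreeGroup.of (1 : Fin 2) ^ r)⁻¹} : Set (FreeGroup (Fin 2)))) := by
  set R : Set (FreeGroup (Fin 2)) := {FreeGroup.of (0 : Fin 2) ^ orderOf x,
    FreeGroup.of (1 : Fin 2) ^ orderOf y, (FreeGroup.of (0 : Fin 2))⁻¹ * FreeGroup.of 1 *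
      FreeGroup.of 0 * (FreeGroup.of (1 : Fin 2) ^ r)⁻¹}
  have hrel : ∀ r ∈ R, PresentedGroup.mk R r = 1 := fun r hr => PresentedGroup.one_of_mem hr
  obtain ⟨h1, h2⟩ := card_le_of_rel (G := PresentedGroup R) (x := PresentedGroup.of 0)
    (y := PresentedGroup.of 1) (r := r) (orderOf_pos x) (orderOf_pos y) (hrel _ (Or.inl rfl))
    (hrel _ (Or.inr (Or.inl rfl))) (mul_inv_eq_one.mp (hrel _ (Or.inr (Or.inr rfl)))) (by
      rw [← PresentedGroup.closure_range_of]
      congr 1
      ext g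
      simp [Fin.exists_fin_two, eq_comm])
  let g : PresentedGroup R →* G := PresentedGroup.toGroup (f := ![x, y]) (by
    rintro r (rfl | rfl | rfl)
    · simp
    · simp
    · simp [h])
  have hg : Function.Surjective g := by
    rw [← MonoidHom.range_eq_top, eq_top_iff, ← hgen, closure_le]
    rintro _ (rfl | rfl)
    · exact ⟨PresentedGroup.of 0, by simp [g]⟩
    · exact ⟨PresentedGroup.of 1, by simp [g]⟩
  exact ⟨(MulEquiv.ofBijective g ((Nat.bijective_iff_surjective_and_card g).mpr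
    ⟨hg, le_antisymm (hc ▸ h2) (Nat.card_le_card_of_surjective g hg)⟩)).symm⟩

theorem pow_mod_eq {y : G} {k : ℕ} (h : y ^ k = y) : k % orderOf y = 1 % orderOf y :=
  pow_eq_pow_iff_modEq.mp (h.trans (pow_one y).symm)

theorem IsFPF.pow_div_rad [Finite G] (hG : IsFPF G) {x y : G} {r : ℕ} (h : x⁻¹ * y * x = y ^ r)
    (hc : Nat.Coprime (orderOf x) (orderOf y)) :
    r ^ (orderOf x / ∏ p ∈ (orderOf x).primeFactors, p) % orderOf y = 1 % orderOf y := by
  have hn := orderOf_pos x
  have hm := orderOf_pos y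
  have key : ∀ k, orderOf (r : ZMod (orderOf y)) ∣ k ↔ r ^ k % orderOf y = 1 % orderOf y := by
    intro k
    rw [orderOf_dvd_iff_pow_eq_one, ← Nat.cast_pow, ← Nat.cast_one, ZMod.natCast_eq_natCast_iff']
  rw [← key]
  have h1 : orderOf (r : ZMod (orderOf y)) ∣ orderOf x := by
    rw [key]
    apply pow_mod_eq
    rw [← conj_pow_eq h, pow_orderOf_eq_one]; simp
  have h2 : ∀ p ∈ (orderOf x).primeFactors, orderOf (r : ZMod (orderOf y)) * p ∣ orderOf x := by
    intro p hp
    have hp1 := Nat.prime_of_mem_primeFactors hp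
    have hp2 := Nat.dvd_of_mem_primeFactors hp
    rw [mul_comm]
    apply Nat.mul_dvd_of_dvd_div hp2
    have hw : orderOf (x ^ (orderOf x / p))⁻¹ = p := by
      rw [orderOf_inv, orderOf_pow_orderOf_div hn.ne' hp2]
    have hs := conj_pow_eq h (orderOf x / p)
    have hsp : ((r ^ (orderOf x / p) : ℕ) : ZMod (orderOf y)) ^ p = 1 := by
      rw [Nat.cast_pow, ← pow_mul, Nat.div_mul_cancel hp2, ← orderOf_dvd_iff_pow_eq_one]
      exact h1
    rw [orderOf_dvd_iff_pow_eq_one, ← Nat.cast_pow]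
    generalize x ^ (orderOf x / p) = w at hw hs
    generalize r ^ (orderOf x / p) = s at hs hsp
    have hT : (∑ i ∈ Finset.range p, s ^ i).Coprime (orderOf y) := by
      apply Nat.coprime_of_dvd
      intro q hq hqT hqm
      have hyq := orderOf_pow_orderOf_div hm.ne' hqm
      have h3 : w⁻¹ * y ^ (orderOf y / q) * w⁻¹⁻¹ = (y ^ (orderOf y / q)) ^ s := by
        rw [← conj_pow, inv_inv, hs, ← pow_mul, ← pow_mul, mul_comm]
      have h4 := hG.commute_of_prime_normalizes (hw ▸ hp1) (hyq ▸ hq)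
        (h3 ▸ pow_mem (mem_zpowers _) s)
      rw [h4.eq, mul_inv_cancel_right] at h3
      have h5 := pow_mod_eq h3.symm
      rw [hyq, ← ZMod.natCast_eq_natCast_iff', Nat.cast_one] at h5
      rw [← ZMod.natCast_eq_zero_iff] at hqT
      simp only [Nat.cast_sum, Nat.cast_pow, h5, one_pow, Finset.sum_const, Finset.card_range,
        nsmul_eq_mul, mul_one, ZMod.natCast_eq_zero_iff] at hqT
      exact hq.one_lt.ne' (Nat.eq_one_of_dvd_coprimes hc (hqT.trans hp2) hqm)
    have h6 := mul_geom_sum (s : ZMod (orderOf y)) p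
    rw [hsp, sub_self] at h6
    have h7 := (ZMod.isUnit_iff_coprime _ _).mpr hT
    push_cast at h7
    exact sub_eq_zero.mp (h7.mul_left_eq_zero.mp h6)
  obtain ⟨k, hk⟩ := h1
  have hd : 0 < orderOf (r : ZMod (orderOf y)) := Nat.pos_of_ne_zero (by
    rintro h0; rw [h0] at hk; omega)
  have h3 : ∏ p ∈ (orderOf x).primeFactors, p ∣ k :=
    Finset.prod_primes_dvd k (fun p hp => (Nat.prime_of_mem_primeFactors hp).prime)
      (fun p hp => Nat.dvd_of_mul_dvd_mul_left hd (hk ▸ h2 p hp))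
  obtain ⟨l, hl⟩ := h3
  have h4 : 0 < ∏ p ∈ (orderOf x).primeFactors, p :=
    Finset.prod_pos fun p hp => (Nat.prime_of_mem_primeFactors hp).pos
  refine ⟨l, Nat.div_eq_of_eq_mul_right h4 ?_⟩
  calc orderOf x = _ := hk
    _ = _ := by rw [hl]; ring

end CL.FC
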